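import Cfsg.Agent.Mult.Slices
import Cfsg.Agent.O73C.Tabs

set_option autoImplicit false
set_option Elab.async false
set_option maxRecDepth 100000
set_option linter.all false

namespace Cfsg.Agent.O73C
open Cfsg.Agent.CGT

open Cfsg.Agent.Mult

noncomputable def u2_D : PC := ⟨2, 9, 2, 22,
  [[0x500, 0x104, 0x410, 0x1040, 0x100, 0x400, 0x5000, 0x14000, 0x10000], [0, 0, 0x10, 0x140, 0x100, 0x400, 0x1000, 0x4000, 0x10000], [0, 0, 0, 0x11140, 0x100, 0x10400, 0x1000, 0x14000, 0x10000], [0, 0, 0, 0x14000, 0x100, 0x4400, 0x11000, 0x4000, 0x10000], [0, 0, 0, 0, 0, 0x400, 0x1000, 0x4000, 0x10000], [0, 0, 0, 0, 0, 0x10000, 0x11000, 0x4000, 0x10000], [0, 0, 0, 0, 0, 0, 0, 0x4000, 0x10000], [0, 0, 0, 0, 0, 0, 0, 0, 0x10000], [0, 0, 0, 0, 0, 0, 0, 0, 0]],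
  [0x3c3f, 0xc, 0x333, 0x3c, 0, 3, 0, 0, 0],
  [(9, 4, 0x104), (9, 0x10, 0x10410), (9, 0x400, 0x15114), (9, 0x4000, 0x1000), (9, 0x10000, 0x10000), (10, 0x41, 0x4151), (10, 0x10, 0x5004), (10, 0x100, 0x10104), (11, 4, 0x1155), (11, 0x40, 0x4011), (11, 0x100, 0x4000), (11, 0x400, 0x15111), (11, 0x1000, 0x5540), (11, 0x10000, 0x14100)], 19, 0x40000050302070008000100000000060000⟩
noncomputable def u2_ds : List (List ℕ) := [[2, 0, 12, 2, 4, 6, 12, 4, 6, 8, 10, 2, 14, 2, 15, 8, 2], [6, 10, 0, 2, 0, 2, 0, 10, 6], [2, 15, 12, 0, 2, 14, 8, 6, 14, 10, 14, 10, 12, 8, 2, 10], [8, 6, 8, 2, 15, 2, 0, 4, 0, 4, 12, 6, 4, 15, 6, 10, 14, 0, 2], [12, 2, 15, 2, 4, 15, 6, 12, 6, 2], [8, 12, 15, 0, 15, 8, 15, 6, 2, 6, 2, 4, 14, 2, 0, 2, 15, 4], [2, 0, 6, 12, 6, 10, 14, 4, 15, 0, 2], [14, 0, 10, 8, 2, 14, 2, 10, 6, 2, 0, 6, 15], [6, 12, 6, 15, 2, 4, 0, 4, 2,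 8, 4, 15, 2, 0, 12, 2, 4], [15, 2, 6, 10, 4, 2, 8, 4, 6, 14, 10], [10, 0, 12, 14, 0, 2, 0, 2, 15, 2, 10], [12, 10, 12, 10, 8, 6, 10, 2, 0, 6, 12, 6, 15, 4, 2]]
noncomputable def u2_c : Mult.Cert := ⟨40, 19, [[], [], [], [], [1], [2], [3], [32], [7]],
  [([61], 1, 0x30000000000000000000)],
  [[0x776829189ae, 0, 0, 0, 0x6199811021, 0x46199811021, 0x7098242021, 0, 0x800000000], [0, 0x344c0000a1, 0x6101001800, 0xb67201841, 0x48000021, 0x61d9011021, 0x5010001000, 0x5090000000, 0x2000000000], [0, 0, 0x34cc0031a0, 0x214af53f803, 0x60d8011021, 0x171b5190f20, 0x7478033001, 0x20286508001, 0x424000000], [0, 0, 0, 0x31e23216f30, 0x7098200021, 0, 0xc08006001, 0x20402000001, 0x402000001], [0, 0, 0, 0, 0x8000021, 0x100000000, 0x80000000, 0x5000000000, 0x1000000000], [0, 0, 0, 0, 0, 0x75b1110f20, 0x88100001, 0x3040a400000, 0x10000000000], [0, 0, 0, 0,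 0, 0, 0x8002001, 1, 0x400000000], [0, 0, 0, 0, 0, 0, 0, 0x8000001, 0x200000000], [0, 0, 0, 0, 0, 0, 0, 0, 0x404000000]]⟩

end Cfsg.Agent.O73C
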