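import Cfsg.Agent.Mult.Slices
import Cfsg.Agent.O73C.Mul2D

set_option autoImplicit false
set_option Elab.async false
set_option maxRecDepth 100000
set_option linter.all false

namespace Cfsg.Agent.O73C
open Cfsg.Agent.CGT

open Cfsg.Agent.Mult

set_option Elab.async false
theorem u2_all : allB u2_D u2_c [.assoc 1 1 1, .assoc 0x40 0x40 0x40, .assoc 0x400 0x400 0x400, .assoc 0x4000 0x1000 0x1000, .assoc 0x100 0x40 0x40, .assoc 0x400 0x10 4, .assoc 0x400 0x100 0x10, .assoc 0x400 0x400 1, .assoc 0x4000 0x1000 0x10, .assoc 0x4000 0x400 0x400, .assoc 0x100 0x10 1, .assoc 0x100 0x40 1, .assoc 4 4 1, .assoc 0x400 0x10 0x10, .assoc 0x1000 4 1, .assoc 0x1000 0x1000 1, .assoc 0x1000 0x1000 0x40, .assoc 0x4000 0x40 1, .assoc 0x10 4 1, .assoc 4 1 1, .assoc 0x400 0x40 0x40, .assoc 0x40 0x40 4, .assoc 0x1000 1 1, .assoc 0x10 0x10 1, .assoc 0x40 1 1, .assoc 0x40 0x10 0x10, .assoc 0x40 0x10 4,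 .assoc 0x1000 0x10 1, .assoc 0x40 0x40 1, .fus 9 [3, 3] [], .fus 9 [3, 0] [0, 3], .fus 9 [2, 0] [0, 2], .fus 9 [3, 1] [1, 3, 4], .fus 9 [2, 2] [4], .fus 10 [6, 6] [], .fus 10 [7, 7] [], .fus 10 [7, 5] [5, 7], .fus 11 [10, 10] [], .fus 11 [12, 12] [], .fus 11 [11, 11] [13], .fus 11 [12, 9] [9, 12, 13], .fus 11 [11, 8] [8, 11]] 9 m_ts u2_ds [22, 5, 13, 2, 1, 0, 49, 4] [(172, [0x400, 0x10]), (251, [0x440]), (3, [0x10000, 0x1000, 0x14]), (6, [0x1500]), (13, [0x4000]), (0, [0x1155])] = true := by decide +kernel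

end Cfsg.Agent.O73C
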