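import Cfsg.Agent.CGT.Act

set_option autoImplicit false
set_option Elab.async false
set_option maxRecDepth 100000
set_option linter.all false

namespace Cfsg.Agent.O73C
open Cfsg.Agent.CGT

noncomputable def qRR : List (List ℕ) := [[0, 0], [2, 2], [4, 4], [6, 6], [8, 8], [10, 10], [12, 12], [14, 14, 14], [12, 14, 12, 14], [10, 12, 10, 12, 10, 12], [10, 15, 10, 14, 10, 14, 10, 15], [10, 15, 10, 12, 10, 14, 10, 12, 14], [8, 14, 8, 15], [10, 8, 10, 8, 10, 12], [10, 15, 6, 8, 10, 15, 6, 8], [12, 10, 6, 14, 12, 6, 10, 15], [6, 8, 6, 12, 6, 8, 6, 12], [10, 6, 15, 8, 6, 8, 10, 6, 15], [15, 4, 10, 4, 14, 10], [4, 6, 4, 6, 4, 6], [12, 8, 4, 12, 8, 15, 4, 14], [15, 10, 4, 6, 12, 14, 6, 4, 14, 6], [6, 4, 10, 15, 6, 4, 10, 15, 6, 4, 10, 15], [14, 2, 8, 4, 8, 2, 15, 4], [14, 8, 2, 4, 8, 12, 15, 2, 12,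 4], [14, 8, 2, 4, 10, 14, 8, 2, 4, 10], [14, 2, 15, 10, 12, 14, 6, 2, 15, 6], [14, 10, 4, 10, 4, 10, 15, 10], [8, 4, 14, 4, 8, 4, 14, 4], [2, 4, 2, 4, 2, 4, 2, 4], [14, 2, 10, 14, 2, 10, 14, 2, 10], [15, 2, 12, 8, 2, 15, 2, 8, 12, 2], [8, 4, 0, 4, 8, 10, 14, 0, 15, 10], [8, 4, 0, 4, 8, 12, 15, 0, 12, 15], [15, 0, 14, 6, 8, 0, 8, 6], [6, 12, 2, 6, 10, 6, 12, 2, 6, 10], [12, 8, 0, 12, 8, 2, 4, 6, 0, 6, 4, 2], [6, 8, 2, 8, 2, 6, 15, 2, 14, 2, 15], [10, 0, 12, 4, 10, 0, 12, 10, 4, 0, 8], [6, 8, 2, 0, 14, 0, 2, 6, 2, 0, 2, 0, 2]]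

end Cfsg.Agent.O73C
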